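import Cfsg.Agent.SB.Idem.Fam

/-!
# S5765: `GU₁(3) × GU₂(3)` in `U₃(3)` (helper96; generated by notes/SB/idem/out.py)
-/

set_option autoImplicit false

namespace Cfsg.Agent.SB.Idem

open Cfsg.Agent.DS.Cl Cfsg.Agent.DS.Cl.Fwd Cfsg.Agent.SB.Cl

/-- the certificate for U9_12 -/
def cU9_12 : Cert where
  n := 3
  t := 2
  bl := 20
  one := 0x100010001
  X := [0x5282892a1, 0x252415981, 0x609a0a080]
  XY := [0x191614416, 0x14a59028a, 0x4a291142a]
  YX := [0x605080506, 0x1866a0189, 0x6240a9582]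
  Z := [0x454445544, 0x854a0a8a4, 0x69088a116]
  f := [[1, 0x100010000],
    [0x151929151, 0xa26262a0],
    [0x1a16261a1, 0x52929250],
    [0x28042, 0x100024082]]
  T₂ := 0x2200010000000000010000
  T₂' := 0x2200010000000000010000
  T₃ := 0x6900950000000000860068
  T₃' := 0xa5005900000000004a00a4
  ex := []
  w := [(0, 0)]
  ws := [1]
  φ := 1
  j₀ := 0
  P := 0x110690111
  Q := 0x2a0250201
  tree := [(0, 0, 0), (0, 1, 0), (0, 2, 0)]

theorem cU9_12_0 : cU9_12.ok₀ (arQ 3 2 0) = true := by decide +kernel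

theorem cU9_12_1 : cU9_12.ok₁ (arQ 3 2 0) = true := by decide +kernel

theorem cU9_12_2 : cU9_12.ok₂ (arQ 3 2 0) = true := by decide +kernel

theorem cU9_12_3 : cU9_12.ok₃ (arQ 3 2 0) true = true := by decide +kernel

theorem cU9_12_4 : cU9_12.ok₄ (arQ 3 2 0) = true := by decide +kernel

theorem cU9_12_5 : cU9_12.okB (arQ 3 2 0) 16 0x100010001 (fun c => cond (Nat.beq c 0) 1 2) (fun _ => gU)
    [[0x52228a891, 0x924245261, 0x924245261, 0x100010001],
    [0x249518251, 0x292819541, 0x292819541, 0x100010001],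
    [0x6a00089a0, 0xa05606040, 0xa05606040, 0x100010001]] = true := by
  decide +kernel

theorem four_U3b {K V : Type} [Field K] [Finite K] [AddCommGroup V] [Module K V] [Finite V] (h : HF K V)
    {F : FR h.EB} {S : Subgroup (RingAut h.EB)} {D : Finset h.EB} (hU : IsU h) (hA : SS h.EB) (hS : S ≤ SAut h.EB)
    (hD : Fr D) (hinv : Inv S D) (hK : Nat.card K = 9) (H : Two (rk h) D 1 2) : Four F.S S := by
  obtain ⟨_, ω, hω, ha, hk⟩ := field_nine hK
  obtain ⟨e, he, hr⟩ := en_of_two H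
  exact four_u h (by norm_num) (by norm_num) hω ha hk hA hU cU9_12 cU9_12_0 cU9_12_1 cU9_12_2 cU9_12_3 cU9_12_4 cU9_12_5
    hD he hr hS hinv

end Cfsg.Agent.SB.Idem
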